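import Cfsg.Agent.Bender.CoreBasic2
import Cfsg.Agent.Trans.LocalTools

/-!
# Inverted elements fix at most two points; the regular 2-subgroup of a proper subgroup
-/

set_option autoImplicit false

namespace Cfsg.Lib.Bender

open Cfsg.Lib.Chev.RankOne Cfsg.Lib.Trans Cfsg.Lib.Gold Cfsg.Lib Cfsg.Agent MulAction Subgroup

universe u v

variable {G : Type u} {Ω : Type v} [Group G] [Finite G] [MulAction G Ω]

/-- The statement `H1` for all primes. -/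
def H1 (G : Type u) (Ω : Type v) [Group G] [MulAction G Ω] : Prop :=
  ∀ (p : ℕ) [Fact p.Prime] (a : Ω), p ∣ Nat.card (II G a) → ∀ Y : Subgroup G, IsPGroup p Y →
    Fix3 Ω Y → Delta Ω (Cs Y) = Fx Ω Y

theorem Ctx.k2_of_h1 (hC : Ctx G Ω) (h1 : H1 G Ω) {t j : G} (ht : Invol t) (hj1 : j ≠ 1)
    (htj : t * j * t⁻¹ = j⁻¹) : ¬ Fix3 Ω (zpowers j) := by
  intro h3
  obtain ⟨p, hp, hpd⟩ := Nat.exists_prime_and_dvd (mt orderOf_eq_one_iff.1 hj1)
  haveI := Fact.mk hp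
  set y := j ^ (orderOf j / p) with hy
  have hyo : orderOf y = p := orderOf_pow_orderOf_div (orderOf_pos j).ne' hpd
  have hy1 : y ≠ 1 := fun h => hp.one_lt.ne (by rw [← hyo, h, orderOf_one])
  have hty : t * y * t⁻¹ = y⁻¹ := conj_pow_of_inverts htj _
  have h3' : Fix3 Ω (zpowers y) := h3.mono (zpowers_le.2 (pow_mem (mem_zpowers j) _))
  obtain ⟨d, hd⟩ := hC.uq.exists_II ht
  obtain ⟨a, ha, b, hb, c, hc, hab, hac, hbc⟩ := id h3'
  obtain ⟨x, hx, hxd⟩ : ∃ x ∈ Fx Ω (zpowers y), x ≠ d := by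
    by_cases e : a = d
    · exact ⟨b, hb, fun e' => hab (e.trans e'.symm)⟩
    · exact ⟨a, ha, e⟩
  have htx : x ≠ t • x := fun e => hxd (hC.uq.eq_of_II hd e.symm)
  have hyD : y ∈ St G x (t • x) :=
    le_St_iff.2 ⟨hx, smul_mem_Fx hx (mem_Ns_zpowers_of_inv hty)⟩ (mem_zpowers y)
  have hk := hC.uq.dvd_card_II htx (mem_TT.2 ⟨rfl, ht⟩) (hC.mem_Delta x) ⟨hyD, hty⟩ (hyo ▸ hp)
  rw [hyo] at hk
  have hD := h1 p x hk (zpowers y)
    (IsPGroup.of_card (n := 1) (by rw [Nat.card_zpowers, hyo, pow_one])) h3'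
  have ho := odd_orderOf_of_mem (hC.uq.odd_St htx) hyD
  have key : ∀ e ∈ Fx Ω (zpowers y), d = e := fun e he => by
    rw [← hD] at he
    obtain ⟨u, hu, hue⟩ := he
    exact hC.uq.eq_of_inv_of_cent hy1 ho hd hue hty (mem_Cs_zpowers.1 hu)
  exact hab ((key a ha).symm.trans (key b hb))

theorem Ctx.exists_S_of_k2 (hC : Ctx G Ω)
    (k2 : ∀ t j : G, Invol t → j ≠ 1 → t * j * t⁻¹ = j⁻¹ → ¬ Fix3 Ω (zpowers j))
    {M : Subgroup G} (hM : M ≠ ⊤) (h2 : TwoRank M) {a b : Ω}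
    (ha : a ∈ Delta Ω M) (hb : b ∈ Delta Ω M) (hab : a ≠ b) :
    (∀ s ∈ M, ∀ s' ∈ M, s ∈ II G a → s' ∈ II G a → s * s' = s' * s) ∧
    ∃ S : Subgroup G, IsPGroup 2 S ∧ S ≤ M ⊓ stabilizer G a ∧ M ⊓ stabilizer G a ≤ Ns S ∧
      (∀ c ∈ Delta Ω M, ∀ d ∈ Delta Ω M, c ≠ a → d ≠ a → ∃! x, x ∈ S ∧ x • c = d) ∧
      ∀ x ∈ S, ∀ s ∈ M, s ∈ II G a → x * s = s * x := by
  have hB := hC.bp M hM h2 a ha b hb hab
  obtain ⟨Q, hQ⟩ := hB.qhat a ha
  have hO := odd_card_Oc M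
  have hMO : M ≤ Ns (Oc M) := le_normalizer.trans (Ns_le_Ns_ppCoreOf 2 M)
  -- an element of `O(M)` inverted by an involution is trivial
  have hinv : ∀ t : G, Invol t → ∀ j ∈ Oc M, t * j * t⁻¹ = j⁻¹ → j = 1 := by
    intro t ht j hj htj
    by_contra hj1
    obtain ⟨s, hsM, hs⟩ := id ha
    have hf : ∀ c ∈ Delta Ω M, c ∈ Fx Ω (zpowers j) := fun c hc =>
      mem_Fx_iff_le.2 (zpowers_le.2 (hB.fix j hj c hc))
    have h1 : s • b ≠ b := fun e => hab (hC.uq.eq_of_II hs e).symm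
    refine k2 t j ht hj1 htj ⟨a, hf a ha, b, hf b hb, s • b, hf _ (smul_mem_Delta' hb hsM), hab,
      fun e => hab ?_, h1.symm⟩
    rw [← (invol_of_II hs).smul_smul b, ← e, fix_of_II hs]
  have hcent : ∀ t ∈ M, Invol t → t ∈ M ⊓ Cs (Oc M) := by
    intro t htM ht
    refine ⟨htM, mem_centralizer_iff.2 fun x hx => ?_⟩
    obtain ⟨y, -, hy, z, hz, rfl⟩ := exists_cent_mul_inv ht.2 hO
      (fun x hx => mem_normalizer_conj (hMO htM) hx) hx
    rw [hinv t ht z hz.1 hz.2, mul_one, hy]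
  have hcomm : ∀ s ∈ M, ∀ s' ∈ M, s ∈ II G a → s' ∈ II G a → s * s' = s' * s := by
    intro s hsM s' hs'M hs hs'
    have h1 := hinv s (invol_of_II hs) _ (hB.comm a s hsM s' hs'M hs hs') (by
      have := conj_pow_of_inverts (inverts_mul_left (invol_of_II hs).2 (invol_of_II hs').2) 2
      rwa [pow_two] at this)
    rw [← inv_eq_self h1, mul_inv_rev, (invol_of_II hs).inv_eq, (invol_of_II hs').inv_eq]
  refine ⟨hcomm, ?_⟩
  have hNC : M ≤ Ns (Cs (Oc M)) := hMO.trans (normalizer_le_normalizer_centralizer _)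
  have hle := hQ.le_sup (M ⊓ Cs (Oc M)) inf_le_left
    (fun g hg => mem_Ns_inf (le_normalizer hg) (hNC hg)) hcent
  set Q0 := Q ⊓ Cs (Oc M) with hQ0
  obtain ⟨S, hS⟩ := exists_isSylowIn (p := 2) Q0
  have hdec : ∀ d ∈ Q0, ∃ s ∈ S, ∃ c ∈ Oc M, d = s * c := by
    intro d hd
    obtain ⟨s, hs, c, hc, -, e⟩ := hS.exists_mul_eq (C := Oc M) (fun d hd ho => by
      obtain ⟨n, hn⟩ := hQ.two d hd.1
      exact (zpowers_le.2 hn) (mem_zpowers_pow_iff.2 (ho.symm.pow_left n))) hd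
    exact ⟨s, hs, c, hc, e⟩
  have hSn : Q0 ≤ Ns S := by
    intro d hd
    obtain ⟨s, hs, c, hc, rfl⟩ := hdec d hd
    refine mul_mem (le_normalizer hs) (Cs_le_Ns S (mem_centralizer_iff.2 fun x hx => ?_))
    exact (mem_centralizer_iff.1 (hS.le hx).2 c hc).symm
  have hSQ : S ≤ Q := hS.le.trans inf_le_left
  refine ⟨S, hS.isPGroup, hSQ.trans hQ.le, fun g hg => ?_, fun c hc d hd hca hda => ?_,
    fun x hx s hsM hs => ?_⟩
  · have h1 := hS.cj_of_mem_normalizer (mem_Ns_inf (hQ.norm hg) (hNC hg.1))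
    exact mem_normalizer_of_cj_le (hS.le_of_normal h1.isPGroup h1.le (by
      obtain ⟨x, hx, e⟩ := h1.exists_cj_eq hS
      rw [← e, cj_eq_of_mem_normalizer (hSn hx)]; exact hSn))
  · obtain ⟨x, hx, e⟩ := hQ.trans c hc d hd hca hda
    have hx' : x ∈ ((Oc M ⊔ (M ⊓ Cs (Oc M)) : Subgroup G) : Set G) := hle hx
    rw [coe_mul_of_right_le_normalizer_left _ _ (inf_le_left.trans hMO)] at hx'
    obtain ⟨o, ho, y, hy, rfl⟩ := hx'
    have hyQ : y ∈ Q := by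
      have := mul_mem (inv_mem (hQ.oc_le ho)) hx
      rwa [inv_mul_cancel_left] at this
    obtain ⟨s, hs, z, hz, rfl⟩ := hdec y ⟨hyQ, hy.2⟩
    have e' : s • c = d := by
      rw [← e, mul_smul, mul_smul, hB.fix z hz c hc,
        hB.fix o ho _ (smul_mem_Delta' hc (hQ.le (hSQ hs)).1)]
    refine ⟨s, ⟨hs, e'⟩, fun s' hs' => ?_⟩
    have h1 : s⁻¹ * s' ∈ S := mul_mem (inv_mem hs) hs'.1
    have h3 := hQ.reg _ (hSQ h1) c hc hca (by rw [mul_smul, hs'.2, ← e', inv_smul_smul])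
    have h4 : s⁻¹ * s' ∈ S ⊓ Oc M := ⟨h1, h3⟩
    rw [inf_eq_bot_of_coprime (Solv.coprime_card_of_isPGroup hS.isPGroup
      (Nat.coprime_two_right.2 hO)), mem_bot, inv_mul_eq_one] at h4
    exact h4.symm
  · have hxM := hQ.le (hSQ hx)
    have h1 := hQ.cent x (hSQ hx) s hsM hs
    have h3 := II_conj hs (mem_stabilizer_iff.1 hxM.2)
    have h4 := hcomm _ (mul_mem (mul_mem hxM.1 hsM) (inv_mem hxM.1)) s hsM h3 hs
    rw [(invol_of_II hs).inv_eq] at h1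
    have h5 := eq_one_of_mem_of_odd hO h1 (by
      calc x * s * x⁻¹ * s * (x * s * x⁻¹ * s) = x * s * x⁻¹ * (s * (x * s * x⁻¹)) * s := by group
        _ = x * s * x⁻¹ * (x * s * x⁻¹) * (s * s) := by rw [← h4]; group
        _ = 1 := by rw [(invol_of_II h3).2, (invol_of_II hs).2, one_mul])
    rw [mul_eq_one_iff_eq_inv, (invol_of_II hs).inv_eq] at h5
    exact mul_inv_eq_iff_eq_mul.1 h5

end Cfsg.Lib.Bender
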